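import Mathlib

/-!
A simple group with a suitable Sylow 5-subgroup of order 125 has no proper subgroup of index
less than 50.
-/

set_option autoImplicit false

namespace Cfsg.Agent.MinIndexU35

open MulAction

theorem index_bound {G : Type*} [Group G] [Finite G] [IsSimpleGroup G] (Q : Subgroup G)
    (hQ : Nat.card Q = 125) (z t : G) (hzQ : z ∈ Q) (hz1 : z ≠ 1) (hz5 : z ^ 5 = 1)
    (hzc : ∀ q ∈ Q, Commute z q) (hnc : ∃ a ∈ Q, ∃ b ∈ Q, a * b ≠ b * a)
    (htQ : ∀ q ∈ Q, t * q * t⁻¹ ∈ Q) (htz : ∃ k : ℕ, t * z * t⁻¹ = z ^ k)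
    (hirr : ∀ q ∈ Q, q ∉ Subgroup.zpowers z → ∀ i j : ℕ, t * q * t⁻¹ ≠ q ^ i * z ^ j)
    (H : Subgroup G) (hH : H ≠ ⊤) : 50 ≤ H.index := by
  classical
  haveI h5 : Fact (Nat.Prime 5) := ⟨by norm_num⟩
  by_contra hlt
  rw [not_le] at hlt
  -- some point is moved by `z`
  obtain ⟨o, ho⟩ : ∃ o : G ⧸ H, z • o ≠ o := by
    by_contra hc
    push Not at hc
    have hz : z ∈ H.normalCore := by
      rw [Subgroup.normalCore_eq_ker, MonoidHom.mem_ker]
      exact Equiv.ext fun o => hc o
    rcases Subgroup.Normal.eq_bot_or_eq_top (H.normalCore_normal) with h | h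
    · exact hz1 (by rwa [h, Subgroup.mem_bot] at hz)
    · exact hH (top_le_iff.1 (h ▸ H.normalCore_le))
  set Z := Subgroup.zpowers z with hZ
  have hZcard : Nat.card Z = 5 := by
    rw [Nat.card_zpowers]; exact orderOf_eq_prime hz5 hz1
  have hQp : IsPGroup 5 Q := IsPGroup.of_card (n := 3) (by rw [hQ]; norm_num)
  have hdiv : ∀ d : ℕ, d ∣ 125 → d = 1 ∨ d = 5 ∨ d = 25 ∨ d = 125 := by
    intro d hd
    obtain ⟨k, hk, rfl⟩ := (Nat.dvd_prime_pow (p := 5) (m := 3) (by norm_num)).1 (by simpa using hd)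
    interval_cases k <;> simp
  -- orbits of moved points
  have key : ∀ o : G ⧸ H, z • o ≠ o → Nat.card (orbit Q o) = 25 ∧
      Nat.card (stabilizer Q o) = 5 := by
    intro o ho
    have hz' : (⟨z, hzQ⟩ : Q) ∉ stabilizer Q o := fun h => ho h
    have hmul : Nat.card (orbit Q o) * Nat.card (stabilizer Q o) = 125 := by
      rw [← Nat.card_prod, ← hQ]
      exact Nat.card_congr (orbitProdStabilizerEquivGroup Q o)
    have hsmall : Nat.card (stabilizer Q o) ≠ 25 := by
      intro h25
      haveI hP : IsMulCommutative (stabilizer Q o) := by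
        have := IsPGroup.commutative_of_card_eq_prime_sq (p := 5)
          (G := stabilizer Q o) (by rw [h25]; norm_num)
        exact ⟨⟨this⟩⟩
      let zq : Q := ⟨z, hzQ⟩
      set W := stabilizer Q o ⊔ Subgroup.zpowers zq with hW
      have hWtop : W = ⊤ := by
        refine Subgroup.eq_top_of_card_eq _ ?_
        have h1 : Nat.card (stabilizer Q o) ∣ Nat.card W := Subgroup.card_dvd_of_le le_sup_left
        have h2 : Nat.card W ∣ 125 := hQ ▸ Subgroup.card_subgroup_dvd_card W
        have h3 : Nat.card W ≠ 25 := fun h => hz' (by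
          have := Subgroup.eq_of_le_of_card_ge (le_sup_left : stabilizer Q o ≤ W) (by rw [h, h25])
          rw [this]; exact Subgroup.mem_sup_right (Subgroup.mem_zpowers zq))
        rw [h25] at h1
        rcases hdiv _ h2 with h | h | h | h
        · rw [h] at h1; norm_num at h1
        · rw [h] at h1; norm_num at h1
        · exact absurd h h3
        · rw [h, hQ]
      obtain ⟨a, ha, b, hb, hab⟩ := hnc
      apply hab
      have hcz : ∀ x : Q, x * zq = zq * x := fun x => Subtype.ext (hzc x.1 x.2).eq.symm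
      have hWc : W ≤ Subgroup.centralizer (W : Set Q) := by
        have hc1 : stabilizer Q o ≤ Subgroup.centralizer (W : Set Q) := fun p hp => by
          rw [Subgroup.mem_centralizer_iff]
          intro w hw
          have : w ∈ Subgroup.centralizer ({p} : Set Q) := by
            refine (sup_le ?_ ?_ : W ≤ Subgroup.centralizer ({p} : Set Q)) hw
            · intro r hr
              rw [Subgroup.mem_centralizer_singleton_iff]
              exact congrArg Subtype.val (hP.is_comm.comm ⟨r, hr⟩ ⟨p, hp⟩)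
            · rw [Subgroup.zpowers_le, Subgroup.mem_centralizer_singleton_iff]
              exact (hcz p).symm
          exact Subgroup.mem_centralizer_singleton_iff.1 this
        refine sup_le hc1 ?_
        rw [Subgroup.zpowers_le, Subgroup.mem_centralizer_iff]
        exact fun w _ => hcz w
      have := Subgroup.mem_centralizer_iff.1 (hWc (show (⟨b, hb⟩ : Q) ∈ W from hWtop ▸ Subgroup.mem_top _))
        ⟨a, ha⟩ (show (⟨a, ha⟩ : Q) ∈ W from hWtop ▸ Subgroup.mem_top _)
      exact congrArg Subtype.val this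
    have hne125 : Nat.card (stabilizer Q o) ≠ 125 := fun h => hz' (by
      rw [Subgroup.eq_top_of_card_eq (stabilizer Q o) (h.trans hQ.symm)]
      exact Subgroup.mem_top _)
    have hle : Nat.card (orbit Q o) < 50 := lt_of_le_of_lt
      (Nat.card_le_card_of_injective _ Subtype.val_injective) hlt
    rcases hdiv _ (Dvd.intro_left _ hmul) with h | h | h | h <;> rw [h] at hmul <;> omega
  -- `t` preserves the orbit
  have hto : z • t • o ≠ t • o := by
    intro h
    obtain ⟨k, hk⟩ := htz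
    have h1 : (t⁻¹ * z * t) • o = o := by rw [mul_smul, mul_smul, h, inv_smul_smul]
    have h2 : (t⁻¹ * z * t) ^ k = z := by
      rw [show t⁻¹ * z * t = MulAut.conj t⁻¹ z by simp, ← map_pow, ← hk]
      simp [mul_assoc]
    have h3 : (t⁻¹ * z * t) ^ k ∈ stabilizer G o := Subgroup.pow_mem _ h1 k
    rw [h2] at h3
    exact ho h3
  obtain ⟨hO, hS⟩ := key o ho
  obtain ⟨hO', -⟩ := key _ hto
  obtain ⟨u, hu⟩ : ∃ u : Q, (u : G) • o = t • o := by
    by_contra hc
    push Not at hc
    have hd : Disjoint (orbit Q o) (orbit Q (t • o)) := by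
      refine Set.disjoint_left.2 ?_
      rintro _ ⟨a, rfl⟩ ⟨b, hb⟩
      refine hc (b⁻¹ * a) ?_
      have hb' : (b : G) • t • o = (a : G) • o := hb
      show ((b : G)⁻¹ * (a : G)) • o = t • o
      rw [mul_smul, ← hb', inv_smul_smul]
    have h2 := Set.ncard_union_eq hd
    rw [← Nat.card_coe_set_eq (orbit Q o), ← Nat.card_coe_set_eq (orbit Q (t • o)), hO, hO'] at h2
    have h3 := Set.ncard_le_card (orbit Q o ∪ orbit Q (t • o))
    rw [h2, ← Subgroup.index] at h3
    omega
  obtain ⟨x, hx, hx1⟩ : ∃ x ∈ stabilizer Q o, x ≠ 1 := by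
    by_contra hc
    push Not at hc
    rw [show stabilizer Q o = ⊥ from eq_bot_iff.2 fun x hx => hc x hx, Subgroup.card_bot] at hS
    omega
  have hgen : Subgroup.zpowers x = stabilizer Q o := by
    refine Subgroup.eq_of_le_of_card_ge (Subgroup.zpowers_le.2 hx) ?_
    have hd := Subgroup.card_dvd_of_le (Subgroup.zpowers_le.2 hx)
    rw [hS] at hd ⊢
    rcases (Nat.dvd_prime (by norm_num)).1 hd with h | h
    · exact absurd (orderOf_eq_one_iff.1 ((Nat.card_zpowers x).symm.trans h)) hx1
    · rw [h]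
  have hxz : (x : G) ∉ Z := fun h => by
    have h1 : Z ≤ stabilizer G o := by
      have : Subgroup.zpowers (x : G) = Z := Subgroup.eq_of_le_of_card_ge (Subgroup.zpowers_le.2 h) (by
        rw [hZcard, Nat.card_zpowers, Subgroup.orderOf_coe, ← Nat.card_zpowers, hgen, hS])
      rw [← this, Subgroup.zpowers_le]
      exact hx
    exact ho (h1 (Subgroup.mem_zpowers z))
  -- conjugate back into the stabiliser
  set y : Q := u⁻¹ * ⟨t * x * t⁻¹, htQ _ x.2⟩ * u with hy
  have hyS : y ∈ stabilizer Q o := by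
    show ((u : G)⁻¹ * (t * x * t⁻¹) * u) • o = o
    rw [mul_smul, mul_smul, hu, mul_smul, mul_smul, inv_smul_smul]
    have : (x : G) • o = o := hx
    rw [this, ← hu, inv_smul_smul]
  obtain ⟨i, hi⟩ : ∃ i : ℕ, x ^ i = y :=
    Submonoid.mem_powers_iff _ _ |>.1 (mem_powers_iff_mem_zpowers.2 (hgen ▸ hyS))
  -- commutators lie in `Z`
  have hcomm : ∀ a b : Q, ∃ j : ℕ, (a : G) * b = b * a * z ^ j := by
    intro a b
    let zq : Q := ⟨z, hzQ⟩
    haveI hn : (Subgroup.zpowers zq).Normal := ⟨fun w hw g => by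
      obtain ⟨m, rfl⟩ := Subgroup.mem_zpowers_iff.1 hw
      have hgz : g * zq = zq * g := Subtype.ext (hzc g.1 g.2).eq.symm
      rw [(Commute.zpow_right hgz m).eq, mul_assoc, mul_inv_cancel, mul_one]
      exact Subgroup.zpow_mem _ (Subgroup.mem_zpowers zq) m⟩
    have hc25 : Nat.card (Q ⧸ Subgroup.zpowers zq) = 5 ^ 2 := by
      have h := Subgroup.card_eq_card_quotient_mul_card_subgroup (Subgroup.zpowers zq)
      rw [hQ, Nat.card_zpowers, ← Subgroup.orderOf_coe, orderOf_eq_prime hz5 hz1] at h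
      omega
    have hq := IsPGroup.commutative_of_card_eq_prime_sq hc25 (a : Q ⧸ Subgroup.zpowers zq) b
    rw [← QuotientGroup.mk_mul, ← QuotientGroup.mk_mul, QuotientGroup.eq] at hq
    obtain ⟨j, hj⟩ := Submonoid.mem_powers_iff _ _ |>.1 (mem_powers_iff_mem_zpowers.2 (inv_mem hq))
    refine ⟨j, ?_⟩
    have := congrArg Subtype.val hj
    simp only [SubgroupClass.coe_pow, Subgroup.coe_inv, Subgroup.coe_mul, mul_inv_rev, inv_inv] at this
    rw [this]
    group
  obtain ⟨j, hj⟩ := hcomm u (x ^ i)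
  refine hirr x x.2 hxz i j ?_
  have hcoe : ((x ^ i : Q) : G) = (x : G) ^ i := SubgroupClass.coe_pow x i
  have h1 : (u : G)⁻¹ * (t * x * t⁻¹) * u = (x : G) ^ i := by
    rw [← hcoe, hi]; rfl
  have hzu : z ^ j * (u : G)⁻¹ = (u : G)⁻¹ * z ^ j :=
    ((hzc _ u.2).pow_left j).inv_right.eq
  calc t * x * t⁻¹ = (u : G) * (x : G) ^ i * (u : G)⁻¹ := by rw [← h1]; group
    _ = (x : G) ^ i * (u : G) * (z ^ j * (u : G)⁻¹) := by rw [← hcoe, hj]; group
    _ = (x : G) ^ i * z ^ j := by rw [hzu]; group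

end Cfsg.Agent.MinIndexU35
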