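import Cfsg.Agent.MinIndexU35.Data

/-!
Kernel checks of the data for `PSU₃(5)`.
-/

set_option autoImplicit false
set_option maxHeartbeats 4000000

namespace Cfsg.Agent.MinIndexU35

open Matrix

/-- Membership in the unitary group. -/
def IsU (M : M3) : Prop := M.det = 1 ∧ Mᵀ * M.map (fun a => a * (a * a) * (a * a)) = 1

/-- Scalar matrices. -/
def IsSc (M : M3) : Prop := M = M 0 0 • (1 : M3)

theorem field_inv : ∀ z : Q5, z = 0 ∨ ∃ w, z * w = 1 := by decide +kernel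

theorem isU_gens : IsU mU ∧ IsU mV ∧ IsU mT ∧ IsU mX ∧ IsU mY ∧ IsU mW := by
  unfold IsU; decide +kernel

theorem eQ_base : eQ 0 = 1 ∧ eQ 5 = mU ∧ eQ 25 = mV := by decide +kernel
theorem eQ_U : ∀ i, eQ i * mU = eQ (tU i) := by decide +kernel
theorem eQ_V : ∀ i, eQ i * mV = eQ (tV i) := by decide +kernel
theorem eQ_T : ∀ i, mT * eQ i = eQ (tT i) * mT := by decide +kernel
theorem eQ_sc : ∀ i, IsSc (eQ i) → i = 0 := by unfold IsSc; decide +kernel
theorem eQ_Z : ∀ i : Fin 125, eQ i * eQ 1 = eQ (5 * (i / 5) + (i + 1) % 5) := by decide +kernel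
theorem eQ_Zc : eQ 1 * mU = mU * eQ 1 ∧ eQ 1 * mV = mV * eQ 1 ∧ mU * mV ≠ mV * mU := by
  decide +kernel
theorem eQ_pow : ∀ i, eQ i = eQ (pw1 i) ∧ eQ (pw1 i) * eQ i = eQ (pw2 i) ∧
    eQ (pw2 i) * eQ i = eQ (pw3 i) ∧ eQ (pw3 i) * eQ i = eQ (pw4 i) ∧
    eQ (pw4 i) * eQ i = eQ 0 := by decide +kernel
theorem tT_irr : ∀ i : Fin 125, i / 5 ≠ 0 → tT i / 5 ≠ 0 ∧ tT i / 5 ≠ pw1 i / 5 ∧
    tT i / 5 ≠ pw2 i / 5 ∧ tT i / 5 ≠ pw3 i / 5 ∧ tT i / 5 ≠ pw4 i / 5 := by decide +kernel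

theorem sX_eq : ∀ i, mX *ᵥ sPt i = sXc i • sPt (sX i) := by decide +kernel
theorem sY_eq : ∀ i, mY *ᵥ sPt i = sYc i • sPt (sY i) := by decide +kernel
theorem sPt_ne : ∀ i, sPt i ≠ 0 := by decide +kernel

/-- Proportional vectors, via cross products. -/
def Prop3 (v w : Fin 3 → Q5) : Prop := ∀ i j, v i * w j = v j * w i

theorem mW_move : ∀ j, ¬ Prop3 (mW *ᵥ sPt 0) (sPt j) := by unfold Prop3; decide +kernel

theorem pPar_lt : ∀ i : Fin 126, i ≠ 0 → pPar i < i := by decide +kernel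
theorem rep_eq : rep 0 = 1 ∧
    ∀ i : Fin 126, i ≠ 0 → rep i = (if pGen i then mX else mY) * rep (pPar i) := by decide +kernel
theorem rep_pt : ∀ i, Prop3 (rep i *ᵥ pPt 0) (pPt i) := by unfold Prop3; decide +kernel
theorem pPt_ne : ∀ i, pPt i ≠ 0 := by decide +kernel
theorem pPt_distinct : ∀ i j, Prop3 (pPt i) (pPt j) → i = j := by unfold Prop3; decide +kernel
theorem sg_eq : ∀ a : Fin 2,
    rep (sgK a) * sgM a = (if sgB a then mX else mY) * rep (sgI a) := by decide +kernel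
theorem stP_lt : ∀ j : Fin 20, j ≠ 0 → stP j < j := by decide +kernel
theorem stM_eq : stM 0 = 1 ∧ ∀ j : Fin 20, j ≠ 0 → stM j = stM (stP j) * sgM (stG j) := by
  decide +kernel
theorem stM_fix : ∀ j, Prop3 (stM j *ᵥ pPt 0) (pPt 0) := by unfold Prop3; decide +kernel

/-- Proportional matrices, on entries. -/
def PropM (A B : M3) : Prop := ∀ i j k l, A i j * B k l = A k l * B i j

theorem stM_distinct : ∀ i j, PropM (stM i) (stM j) → i = j := by unfold PropM; decide +kernel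

end Cfsg.Agent.MinIndexU35
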