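import Cfsg.Agent.MinIndexU35.Checks

/-!
The listed elements of the 5-group are pairwise non-proportional.
-/

set_option autoImplicit false
set_option maxHeartbeats 4000000

namespace Cfsg.Agent.MinIndexU35

theorem eQ_inj : ∀ i j, PropM (eQ i) (eQ j) → i = j := by unfold PropM; decide +kernel

end Cfsg.Agent.MinIndexU35
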