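import Cfsg.Agent.MinIndexU35.Model
import Cfsg.Agent.MinIndexU35.Checks2
import Cfsg.Agent.MinIndexU35.Bound

/-!
Proper subgroups of `PSU₃(5)` have index at least 50.
-/

set_option autoImplicit false

namespace Cfsg.Agent.MinIndexU35

open Matrix

universe u

theorem index_lower {F : Type u} [Field F] [Fintype F] (hF : Fintype.card F = 25)
    (H : Subgroup (Cfsg.PSU 3 F 5)) (hH : H ≠ ⊤) : 50 ≤ H.index := by
  classical
  obtain ⟨φ, hφ, hc5⟩ := exists_Q5_equiv hF
  haveI := hc5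
  have hsq := Classical.U.sqField_of_fintype (F := F) (q := 5) (by rw [hF]; norm_num)
  haveI : IsSimpleGroup (Cfsg.PSU 3 F 5) :=
    Classical.U.isSimpleGroup_PSU hsq (by norm_num) (by omega)
  let π : Cfsg.SU 3 F 5 →* Cfsg.PSU 3 F 5 := QuotientGroup.mk' _
  let toM : Cfsg.SU 3 F 5 → Matrix (Fin 3) (Fin 3) F := fun g => g.1.1
  have toM_inj : Function.Injective toM := fun a b h => Subtype.ext (Subtype.ext h)
  have tmul : ∀ {a b : Cfsg.SU 3 F 5} {A B : M3}, toM a = φ.mapMatrix A → toM b = φ.mapMatrix B →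
      toM (a * b) = φ.mapMatrix (A * B) := fun {a b A B} ha hb => by
    show toM a * toM b = _
    rw [ha, hb, map_mul]
  obtain ⟨hU, hV, hT, -, -, -⟩ := isU_gens
  obtain ⟨gU, hgU⟩ := exists_lift φ mU hU
  obtain ⟨gV, hgV⟩ := exists_lift φ mV hV
  obtain ⟨gT, hgT⟩ := exists_lift φ mT hT
  obtain ⟨e0, e5, e25⟩ := eQ_base
  obtain ⟨hzu, hzv, hne⟩ := eQ_Zc
  -- lifts of all elements
  have step : ∀ i : Fin 125, 5 ≤ i.val → (25 ≤ i.val → tV (i - 25) = i ∧ i - 25 < i) ∧
      (i.val < 25 → tU (i - 5) = i ∧ i - 5 < i) := by decide +kernel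
  have step0 : ∀ i : Fin 125, i.val < 5 → i ≠ 0 →
      5 * ((i - 1) / 5) + ((i - 1) + 1) % 5 = i ∧ i - 1 < i := by
    decide +kernel
  obtain ⟨gz, hgz⟩ : ∃ g : Cfsg.SU 3 F 5, toM g = φ.mapMatrix (eQ 1) := by
    obtain ⟨k, hk⟩ : ∃ k : Cfsg.SU 3 F 5, toM k = φ.mapMatrix (mU * mV) := ⟨_, tmul hgU hgV⟩
    obtain ⟨l, hl⟩ : ∃ l : Cfsg.SU 3 F 5, toM l = φ.mapMatrix (mV * mU) := ⟨_, tmul hgV hgU⟩
    refine ⟨k * l⁻¹, ?_⟩
    have h1 : eQ 1 * (mV * mU) = mU * mV := by decide +kernel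
    have h2 : toM (k * l⁻¹) * toM l = toM k := by
      show toM (k * l⁻¹ * l) = toM k
      rw [inv_mul_cancel_right]
    have h3 : φ.mapMatrix (eQ 1) * toM l = toM k := by rw [hl, ← map_mul, h1, hk]
    have hu : IsUnit (toM l) := by
      rw [Matrix.isUnit_iff_isUnit_det, show (toM l).det = 1 from l.1.2]
      exact isUnit_one
    exact hu.mul_left_injective (h2.trans h3.symm)
  set Qs : Subgroup (Cfsg.SU 3 F 5) := Subgroup.closure {gU, gV, gz} with hQs
  have hex : ∀ i : Fin 125, ∃ g : Cfsg.SU 3 F 5, toM g = φ.mapMatrix (eQ i) ∧ g ∈ Qs := by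
    intro i
    induction i using WellFoundedLT.induction with
    | _ i ih =>
      by_cases h5 : 5 ≤ i.val
      · obtain ⟨h25, h25'⟩ := step i h5
        by_cases hb : 25 ≤ i.val
        · obtain ⟨g, hg, hgm⟩ := ih _ (h25 hb).2
          exact ⟨g * gV, by rw [tmul hg hgV, eQ_V, (h25 hb).1],
            mul_mem hgm (Subgroup.subset_closure (by simp))⟩
        · obtain ⟨g, hg, hgm⟩ := ih _ (h25' (by omega)).2
          exact ⟨g * gU, by rw [tmul hg hgU, eQ_U, (h25' (by omega)).1],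
            mul_mem hgm (Subgroup.subset_closure (by simp))⟩
      · rcases eq_or_ne i 0 with rfl | h0
        · exact ⟨1, by rw [e0, map_one]; rfl, one_mem _⟩
        · obtain ⟨g, hg, hgm⟩ := ih _ (step0 i (by omega) h0).2
          exact ⟨g * gz, by rw [tmul hg hgz, eQ_Z, (step0 i (by omega) h0).1],
            mul_mem hgm (Subgroup.subset_closure (by simp))⟩
  choose qf hqf hqs using hex
  have hclosed : ∀ g ∈ Qs, ∀ i, ∃ k, toM (qf i * g) = φ.mapMatrix (eQ k) := by
    intro g hg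
    have hg' : g ∈ Submonoid.closure ({gU, gV, gz} : Set (Cfsg.SU 3 F 5)) := by
      rw [← Subgroup.closure_toSubmonoid_of_finite]; exact hg
    clear hg
    induction hg' using Submonoid.closure_induction with
    | mem x hx =>
      rcases hx with rfl | rfl | rfl
      · exact fun i => ⟨_, by rw [tmul (hqf i) hgU, eQ_U]⟩
      · exact fun i => ⟨_, by rw [tmul (hqf i) hgV, eQ_V]⟩
      · exact fun i => ⟨_, by rw [tmul (hqf i) hgz, eQ_Z]⟩
    | one => exact fun i => ⟨i, by rw [mul_one]; exact hqf i⟩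
    | mul x y hx hy h1 h2 =>
      intro i
      obtain ⟨k, hk⟩ := h1 i
      obtain ⟨l, hl⟩ := h2 k
      refine ⟨l, ?_⟩
      rw [← hl, ← mul_assoc, show qf i * x = qf k from toM_inj (hk.trans (hqf k).symm)]
  have hq0 : qf 0 = 1 := toM_inj ((hqf 0).trans (by rw [e0, map_one]; rfl))
  have formQ : ∀ g ∈ Qs, ∃ i, g = qf i := fun g hg => by
    obtain ⟨k, hk⟩ := hclosed g hg 0
    rw [hq0, one_mul] at hk
    exact ⟨k, toM_inj (hk.trans (hqf k).symm)⟩
  have hcz : ∀ g ∈ Qs, g ∈ Subgroup.center (Cfsg.SU 3 F 5) → g = 1 := by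
    intro g hg hgc
    obtain ⟨i, rfl⟩ := formQ g hg
    obtain ⟨c, hc⟩ := mem_center_scalar hF hgc
    rw [eQ_sc i (isSc_of_map hφ ((hqf i).symm.trans hc)), hq0]
  have hinjπ : ∀ g ∈ Qs, ∀ g' ∈ Qs, π g = π g' → g = g' := fun g hg g' hg' h =>
    inv_mul_eq_one.1 (hcz _ (mul_mem (inv_mem hg) hg') (QuotientGroup.eq.1 h))
  have qinj : Function.Injective qf := fun i j h => eQ_inj i j (propM_of_map hφ (c := 1) (by
    rw [one_smul, ← hqf i, ← hqf j, h]))
  let U : Fin 125 → Cfsg.PSU 3 F 5 := fun i => π (qf i)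
  have Uinj : Function.Injective U := fun i j h => qinj (hinjπ _ (hqs i) _ (hqs j) h)
  have key : ∀ {a : Cfsg.SU 3 F 5} {i : Fin 125}, toM a = φ.mapMatrix (eQ i) → π a = U i :=
    fun {a i} ha => congrArg π (toM_inj (ha.trans (hqf i).symm))
  set Q := Qs.map π with hQ
  have memQ : ∀ {g}, g ∈ Q ↔ ∃ i, U i = g := by
    intro g
    refine ⟨?_, fun ⟨i, hi⟩ => ⟨_, hqs i, hi⟩⟩
    rintro ⟨a, ha, rfl⟩
    obtain ⟨i, rfl⟩ := formQ a ha
    exact ⟨i, rfl⟩
  have Umul : ∀ {i j k}, eQ i * eQ j = eQ k → U i * U j = U k := fun {i j k} h => by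
    rw [← map_mul]; exact key (by rw [tmul (hqf i) (hqf j), h])
  have Upow : ∀ i, ∀ n : ℕ, U i ^ n = ![U 0, U (pw1 i), U (pw2 i), U (pw3 i), U (pw4 i)]
      (Fin.ofNat 5 n) := by
    intro i n
    obtain ⟨p1, p2, p3, p4, p5⟩ := eQ_pow i
    have hp1 : U (pw1 i) = U i := (key ((hqf i).trans (by rw [← p1]))).symm
    induction n with
    | zero => rw [pow_zero]; show 1 = π (qf 0); rw [hq0, map_one]
    | succ n ih =>
      rw [pow_succ, ih]
      have hn : Fin.ofNat 5 (n + 1) = Fin.ofNat 5 n + 1 := by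
        ext; simp [Fin.val_add]
      rw [hn]
      generalize Fin.ofNat 5 n = k
      fin_cases k
      · show π (qf 0) * U i = U (pw1 i)
        rw [hq0, map_one, one_mul, hp1]
      · exact Umul p2
      · exact Umul p3
      · exact Umul p4
      · exact Umul p5
  have hzdiv : ∀ (m : Fin 125) (n : ℕ), ∃ m', U m * U 1 ^ n = U m' ∧ m' / 5 = m / 5 := by
    intro m n
    induction n with
    | zero => exact ⟨m, by rw [pow_zero, mul_one], rfl⟩
    | succ n ih =>
      obtain ⟨m', h1, h2⟩ := ih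
      refine ⟨_, by rw [pow_succ, ← mul_assoc, h1, Umul (eQ_Z m')], ?_⟩
      rw [← h2]
      exact (by decide +kernel : ∀ a : Fin 125, (5 * (a / 5) + (a + 1) % 5) / 5 = a / 5) m'
  have hz5 : U 1 ^ 5 = 1 := by
    rw [Upow]; show π (qf 0) = 1; rw [hq0, map_one]
  have hU0 : U 0 = 1 := by show π (qf 0) = 1; rw [hq0, map_one]
  have hcard : Nat.card Q = 125 := by
    rw [← Nat.card_fin 125]
    exact (Nat.card_eq_of_bijective (fun i => (⟨U i, memQ.2 ⟨i, rfl⟩⟩ : Q))
      ⟨fun i j h => Uinj (congrArg Subtype.val h),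
        fun ⟨g, hg⟩ => (memQ.1 hg).imp fun i hi => Subtype.ext hi⟩).symm
  have zc : ∀ i, eQ 1 * eQ i = eQ i * eQ 1 := by
    intro i
    have hgc : Qs ≤ Subgroup.centralizer ({gz} : Set (Cfsg.SU 3 F 5)) := by
      rw [hQs, Subgroup.closure_le]
      rintro x (rfl | rfl | rfl)
      · exact Subgroup.mem_centralizer_singleton_iff.2 (toM_inj
          ((tmul hgU hgz).trans ((congrArg _ hzu.symm).trans (tmul hgz hgU).symm)))
      · exact Subgroup.mem_centralizer_singleton_iff.2 (toM_inj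
          ((tmul hgV hgz).trans ((congrArg _ hzv.symm).trans (tmul hgz hgV).symm)))
      · exact Subgroup.mem_centralizer_singleton_iff.2 rfl
    have h1 := Subgroup.mem_centralizer_singleton_iff.1 (hgc (hqs i))
    have h2 := congrArg toM h1
    rw [tmul (hqf i) hgz, tmul hgz (hqf i)] at h2
    exact (Matrix.map_injective hφ h2).symm
  have hconj : ∀ i, π gT * U i * (π gT)⁻¹ = U (tT i) := fun i => by
    rw [mul_inv_eq_iff_eq_mul, ← map_mul, ← map_mul]
    exact congrArg π (toM_inj (by rw [tmul hgT (hqf i), tmul (hqf _) hgT, eQ_T]))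
  refine index_bound Q hcard (U 1) (π gT) (memQ.2 ⟨1, rfl⟩) ?_ hz5 ?_ ?_ ?_ ?_ ?_ H hH
  · intro h
    exact absurd (Uinj (h.trans hU0.symm)) (by decide)
  · intro q hq
    obtain ⟨i, rfl⟩ := memQ.1 hq
    show π _ * π _ = π _ * π _
    rw [← map_mul, ← map_mul]
    exact congrArg π (toM_inj (by rw [tmul (hqf 1) (hqf i), tmul (hqf i) (hqf 1), zc]))
  · refine ⟨U 5, memQ.2 ⟨5, rfl⟩, U 25, memQ.2 ⟨25, rfl⟩, fun h => hne ?_⟩
    rw [← map_mul, ← map_mul] at h
    have h' := congrArg toM (hinjπ _ (mul_mem (hqs 5) (hqs 25)) _ (mul_mem (hqs 25) (hqs 5)) h)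
    rw [tmul (hqf 5) (hqf 25), tmul (hqf 25) (hqf 5), e5, e25] at h'
    exact Matrix.map_injective hφ h'
  · intro q hq
    obtain ⟨i, rfl⟩ := memQ.1 hq
    exact memQ.2 ⟨tT i, (hconj i).symm⟩
  · have hT1 : ∃ k : Fin 5, tT 1 = k.castLE (by decide) := by decide +kernel
    obtain ⟨k, hk⟩ := hT1
    refine ⟨k.val, ?_⟩
    rw [hconj 1, hk]
    have : ∀ k : Fin 5, U (k.castLE (by decide)) = U 1 ^ k.val := by
      intro k
      have hmul : ∀ m : Fin 125, m.val < 4 → eQ m * eQ 1 = eQ (m + 1) := by decide +kernel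
      obtain ⟨k, hk⟩ := k
      induction k with
      | zero => rw [pow_zero]; exact hU0
      | succ k ih =>
        rw [pow_succ, ← ih (by omega), Umul (hmul _ (by simp; omega))]
        congr 1
        ext; simp [Fin.val_add]; omega
    exact this k
  · intro q hq hnz a b heq
    obtain ⟨i, rfl⟩ := memQ.1 hq
    have hi : i / 5 ≠ 0 := by
      intro h
      apply hnz
      have hex : ∀ i : Fin 125, i / 5 = 0 → ∃ k : Fin 5, 5 * (0 : Fin 125) + k.castLE (by decide) = i := by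
        decide +kernel
      obtain ⟨k, hk⟩ := hex i h
      have hlow : ∀ n : ℕ, ∀ hn : n < 125, n < 5 → U ⟨n, hn⟩ = U 1 ^ n := by
        intro n
        induction n with
        | zero => intro _ _; rw [pow_zero]; exact hU0
        | succ n ih =>
          intro hn h5
          rw [pow_succ, ← ih (by omega) (by omega), Umul (eQ_Z _)]
          congr 1
          have : n < 4 := by omega
          interval_cases n <;> rfl
      rw [← hk, mul_zero, zero_add,
        show (k.castLE (by decide) : Fin 125) = ⟨k.val, by omega⟩ from rfl, hlow _ _ k.2]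
      exact Subgroup.pow_mem _ (Subgroup.mem_zpowers _) _
    rw [hconj, Upow] at heq
    obtain ⟨h0, h1, h2, h3, h4⟩ := tT_irr i hi
    revert heq
    generalize Fin.ofNat 5 a = k
    fin_cases k <;> intro heq
    all_goals
      obtain ⟨m', hm, hdiv⟩ := hzdiv _ b
      rw [← Uinj (heq.trans hm)] at hdiv
    · exact h0 (hdiv.trans (by decide))
    · exact h1 hdiv
    · exact h2 hdiv
    · exact h3 hdiv
    · exact h4 hdiv

end Cfsg.Agent.MinIndexU35
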