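import Cfsg.Agent.MinIndexU35.Checks
import Cfsg.Agent.RecogA.ThreeSpectrum

/-!
Matrices over `Q5` inside `PSU₃(5)`.
-/

set_option autoImplicit false

namespace Cfsg.Agent.MinIndexU35

open Matrix

universe u

instance factPrimeFiveU35 : Fact (Nat.Prime 5) := ⟨by norm_num⟩

theorem exists_Q5_equiv {F : Type u} [Field F] [Fintype F] (hF : Fintype.card F = 25) :
    ∃ φ : Q5 →+* F, Function.Injective φ ∧ CharP F 5 := by
  haveI : CharP F 5 := by
    obtain ⟨p, hp⟩ := CharP.exists F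
    obtain ⟨n, hpr, hn⟩ := FiniteField.card F p
    have hd : p ∣ 5 ^ 2 := by
      rw [show (5 : ℕ) ^ 2 = 25 by norm_num, ← hF, hn]
      exact dvd_pow_self p n.pos.ne'
    rwa [(Nat.prime_dvd_prime_iff_eq hpr (by norm_num)).1 (hpr.dvd_of_dvd_pow hd)] at hp
  letI : Algebra (ZMod 5) F := ZMod.algebra F 5
  have h5 : (5 : F) = 0 := CharP.cast_eq_zero F 5
  obtain ⟨r, hr⟩ : IsSquare (2 : F) := by
    have h2 : (2 : F) ≠ 0 := fun h => by
      have : ((2 : ℕ) : F) = 0 := by exact_mod_cast h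
      have := (CharP.cast_eq_zero_iff F 5 2).1 this
      norm_num at this
    rw [FiniteField.isSquare_iff (by rw [ringChar.eq F 5]; norm_num) h2, hF]
    norm_num
    linear_combination (819 : F) * h5
  have hr2 : r * r = (2 : ZMod 5) • (1 : F) + (0 : ZMod 5) • r := by
    rw [← hr, zero_smul, add_zero, Algebra.smul_def, mul_one, map_ofNat]
  refine ⟨(QuadraticAlgebra.lift ⟨r, hr2⟩).toRingHom, ?_, inferInstance⟩
  rw [injective_iff_map_eq_zero]
  intro z hz
  rcases field_inv z with h | ⟨w, hw⟩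
  · exact h
  · exfalso
    have := congrArg (QuadraticAlgebra.lift ⟨r, hr2⟩).toRingHom hw
    rw [map_mul, hz, zero_mul, map_one] at this
    exact zero_ne_one this

theorem prop3_smul {F : Type u} [Field F] {v w : Fin 3 → F} (hw : w ≠ 0)
    (h : ∀ i j, v i * w j = v j * w i) : ∃ c : F, v = c • w := by
  obtain ⟨k, hk⟩ := Function.ne_iff.1 hw
  refine ⟨v k / w k, funext fun i => ?_⟩
  rw [Pi.smul_apply, smul_eq_mul, div_mul_eq_mul_div, eq_div_iff hk, h i k]

theorem mem_center_scalar {F : Type u} [Field F] [Fintype F] (hF : Fintype.card F = 25)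
    {g : Cfsg.SU 3 F 5} (hg : g ∈ Subgroup.center (Cfsg.SU 3 F 5)) :
    ∃ c : F, (g.1.1 : Matrix (Fin 3) (Fin 3) F) = c • 1 := by
  have h2 : Classical.U.suEquiv 3 F 5 g ∈ Subgroup.center (Classical.U.SUG 3 F 5) := by
    rw [Subgroup.mem_center_iff]
    intro x
    obtain ⟨y, rfl⟩ := (Classical.U.suEquiv 3 F 5).surjective x
    rw [← map_mul, ← map_mul, Subgroup.mem_center_iff.1 hg y]
  obtain ⟨c, hc⟩ := Classical.U.center_SUG_scalar
    (Classical.U.sqField_of_fintype (q := 5) (by rw [hF]; norm_num)) (by norm_num) _ h2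
  refine ⟨c, Matrix.ext_of_mulVec_single fun i => ?_⟩
  rw [Matrix.smul_mulVec, Matrix.one_mulVec]
  exact hc (Pi.single i 1)

theorem exists_lift {F : Type u} [Field F] (φ : Q5 →+* F) [CharP F 5] (M : M3) (h : IsU M) :
    ∃ g : Cfsg.SU 3 F 5, (g.1.1 : Matrix (Fin 3) (Fin 3) F) = φ.mapMatrix M := by
  obtain ⟨hM, hMU⟩ := h
  let g : Matrix.SpecialLinearGroup (Fin 3) F :=
    ⟨φ.mapMatrix M, by rw [← RingHom.map_det, hM, map_one]⟩
  have hm : g ∈ Cfsg.SU 3 F 5 := by
    rw [RecogA.mem_SU_iff (by norm_num) fun a b => add_pow_char a b 5]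
    show (M.map φ)ᵀ * (M.map φ).map (· ^ 5) = 1
    rw [Matrix.map_map, ← Matrix.transpose_map,
      show ((fun x : F => x ^ 5) ∘ φ) = φ ∘ (fun a : Q5 => a * (a * a) * (a * a)) from
        funext fun x => by simp only [Function.comp_apply, map_mul]; ring,
      ← Matrix.map_map, ← RingHom.mapMatrix_apply, ← RingHom.mapMatrix_apply, ← map_mul, hMU,
      map_one]
  exact ⟨⟨g, hm⟩, rfl⟩

variable {F : Type u} [Field F]

theorem mulVec_ne_zero (g : Cfsg.SU 3 F 5) {v : Fin 3 → F} (hv : v ≠ 0) :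
    (g.1.1 : Matrix (Fin 3) (Fin 3) F) *ᵥ v ≠ 0 := by
  intro h
  refine hv (Matrix.eq_zero_of_mulVec_eq_zero ?_ h)
  rw [g.1.2]
  exact one_ne_zero

theorem map_mulVec' (φ : Q5 →+* F) (M : M3) (v : Fin 3 → Q5) :
    φ ∘ (M *ᵥ v) = φ.mapMatrix M *ᵥ (φ ∘ v) := funext fun i => RingHom.map_mulVec φ M v i

theorem map_smul' (φ : Q5 →+* F) (c : Q5) (v : Fin 3 → Q5) : φ ∘ (c • v) = φ c • (φ ∘ v) :=
  funext fun i => map_mul φ c (v i)

theorem prop3_of_map {φ : Q5 →+* F} (hφ : Function.Injective φ) {v w : Fin 3 → Q5} {c : F}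
    (h : φ ∘ v = c • (φ ∘ w)) : Prop3 v w := by
  intro i j
  have hi : φ (v i) = c * φ (w i) := congrFun h i
  have hj : φ (v j) = c * φ (w j) := congrFun h j
  apply hφ
  rw [map_mul, map_mul, hi, hj]
  ring

theorem smul_of_prop3 (φ : Q5 →+* F) {v w : Fin 3 → Q5} (hw : φ ∘ w ≠ 0) (h : Prop3 v w) :
    ∃ c : F, φ ∘ v = c • (φ ∘ w) :=
  prop3_smul hw fun i j => by
    show φ (v i) * φ (w j) = φ (v j) * φ (w i)
    rw [← map_mul, ← map_mul, h i j]

theorem map_ne_zero' {φ : Q5 →+* F} (hφ : Function.Injective φ) {v : Fin 3 → Q5} (hv : v ≠ 0) :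
    φ ∘ v ≠ 0 := fun h => hv (funext fun i => hφ (by rw [Pi.zero_apply, map_zero]; exact congrFun h i))

theorem isSc_of_map {φ : Q5 →+* F} (hφ : Function.Injective φ) {M : M3} {c : F}
    (h : φ.mapMatrix M = c • 1) : IsSc M := by
  have hc : φ (M 0 0) = c := by simpa using congrFun (congrFun h 0) 0
  refine Matrix.ext fun i j => hφ ?_
  have h1 : φ (M i j) = (c • (1 : Matrix (Fin 3) (Fin 3) F)) i j := congrFun (congrFun h i) j
  rw [h1]
  rcases eq_or_ne i j with rfl | hij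
  · simp [hc]
  · simp [hij]

theorem propM_of_map {φ : Q5 →+* F} (hφ : Function.Injective φ) {A B : M3} {c : F}
    (h : φ.mapMatrix A = c • φ.mapMatrix B) : PropM A B := by
  intro i j k l
  have hij : φ (A i j) = c * φ (B i j) := congrFun (congrFun h i) j
  have hkl : φ (A k l) = c * φ (B k l) := congrFun (congrFun h k) l
  apply hφ
  rw [map_mul, map_mul, hij, hkl]
  ring

end Cfsg.Agent.MinIndexU35
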