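import Cfsg.Agent.MinIndexU35.Lower

/-!
`PSU₃(5)` has a subgroup of index 50.
-/

set_option autoImplicit false

namespace Cfsg.Agent.MinIndexU35

open Matrix

universe u

theorem exists_index_fifty {F : Type u} [Field F] [Fintype F] (hF : Fintype.card F = 25) :
    ∃ H : Subgroup (Cfsg.PSU 3 F 5), H.index = 50 := by
  classical
  obtain ⟨φ, hφ, hc5⟩ := exists_Q5_equiv hF
  haveI := hc5
  have hsq := Classical.U.sqField_of_fintype (F := F) (q := 5) (by rw [hF]; norm_num)
  let π : Cfsg.SU 3 F 5 →* Cfsg.PSU 3 F 5 := QuotientGroup.mk' _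
  let toM : Cfsg.SU 3 F 5 → Matrix (Fin 3) (Fin 3) F := fun g => g.1.1
  have toM_inj : Function.Injective toM := fun a b h => Subtype.ext (Subtype.ext h)
  have tmul : ∀ {a b : Cfsg.SU 3 F 5} {A B : M3}, toM a = φ.mapMatrix A → toM b = φ.mapMatrix B →
      toM (a * b) = φ.mapMatrix (A * B) := fun {a b A B} ha hb => by
    show toM a * toM b = _
    rw [ha, hb, map_mul]
  obtain ⟨-, -, -, hX, hY, hW⟩ := isU_gens
  obtain ⟨gX, hgX⟩ := exists_lift φ mX hX
  obtain ⟨gY, hgY⟩ := exists_lift φ mY hY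
  obtain ⟨gW, hgW⟩ := exists_lift φ mW hW
  set K : Subgroup (Cfsg.SU 3 F 5) := Subgroup.closure {gX, gY} with hK
  -- the invariant set of lines
  let Inv : Cfsg.SU 3 F 5 → Prop := fun g =>
    ∀ i, ∃ (j : Fin 105) (c : F), toM g *ᵥ (φ ∘ sPt i) = c • (φ ∘ sPt j)
  have hInv : ∀ g ∈ K, Inv g := by
    intro g hg
    have hg' : g ∈ Submonoid.closure ({gX, gY} : Set (Cfsg.SU 3 F 5)) := by
      rw [← Subgroup.closure_toSubmonoid_of_finite]; exact hg
    clear hg
    induction hg' using Submonoid.closure_induction with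
    | mem x hx =>
      rcases hx with rfl | rfl
      · intro i
        refine ⟨sX i, φ (sXc i), ?_⟩
        rw [show toM x = φ.mapMatrix mX from hgX, ← map_mulVec', sX_eq, map_smul']
      · intro i
        refine ⟨sY i, φ (sYc i), ?_⟩
        rw [show toM x = φ.mapMatrix mY from hgY, ← map_mulVec', sY_eq, map_smul']
    | one => exact fun i => ⟨i, 1, by show (1 : Matrix (Fin 3) (Fin 3) F) *ᵥ _ = _; simp⟩
    | mul x y _ _ h1 h2 =>
      intro i
      obtain ⟨j, c, hj⟩ := h2 i
      obtain ⟨k, d, hk⟩ := h1 j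
      refine ⟨k, c * d, ?_⟩
      show (toM x * toM y) *ᵥ _ = _
      rw [← Matrix.mulVec_mulVec, hj, Matrix.mulVec_smul, hk, smul_smul]
  have hproper : K.map π ≠ ⊤ := by
    intro htop
    obtain ⟨a, ha, hπa⟩ : π gW ∈ K.map π := htop ▸ Subgroup.mem_top _
    obtain ⟨e, he⟩ := mem_center_scalar hF (QuotientGroup.eq.1 hπa)
    obtain ⟨j, c, hj⟩ := hInv a ha 0
    have h1 : toM gW = e • toM a := by
      have h2 : toM gW = toM a * toM (a⁻¹ * gW) := by
        show _ = toM (a * (a⁻¹ * gW))
        rw [mul_inv_cancel_left]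
      rw [h2, show toM (a⁻¹ * gW) = e • 1 from he, Matrix.mul_smul, Matrix.mul_one]
    refine mW_move j (prop3_of_map hφ (c := e * c) ?_)
    rw [map_mulVec', ← show toM gW = φ.mapMatrix mW from hgW, h1, Matrix.smul_mulVec, hj, smul_smul]
  -- representatives of the orbit
  have hrep : ∀ i : Fin 126, ∃ g ∈ K, toM g = φ.mapMatrix (rep i) := by
    intro i
    induction i using WellFoundedLT.induction with
    | _ i ih =>
      rcases eq_or_ne i 0 with rfl | hi
      · exact ⟨1, one_mem _, by rw [rep_eq.1, map_one]; rfl⟩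
      obtain ⟨g, hg, hgm⟩ := ih _ (pPar_lt i hi)
      rw [rep_eq.2 i hi]
      cases pGen i
      · exact ⟨gY * g, mul_mem (Subgroup.subset_closure (by simp)) hg, tmul hgY hgm⟩
      · exact ⟨gX * g, mul_mem (Subgroup.subset_closure (by simp)) hg, tmul hgX hgm⟩
  choose r hrK hr using hrep
  have hgen : ∀ a : Fin 2, ∃ g ∈ K, toM g = φ.mapMatrix (sgM a) := by
    intro a
    obtain ⟨g, hg, hgm⟩ : ∃ g ∈ K,
        toM g = φ.mapMatrix ((if sgB a then mX else mY) * rep (sgI a)) := by
      cases sgB a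
      · exact ⟨gY * r _, mul_mem (Subgroup.subset_closure (by simp)) (hrK _), tmul hgY (hr _)⟩
      · exact ⟨gX * r _, mul_mem (Subgroup.subset_closure (by simp)) (hrK _), tmul hgX (hr _)⟩
    refine ⟨(r (sgK a))⁻¹ * g, mul_mem (inv_mem (hrK _)) hg, ?_⟩
    show toM (r (sgK a))⁻¹ * toM g = _
    rw [hgm, ← sg_eq, map_mul, ← hr (sgK a), ← mul_assoc]
    show toM ((r (sgK a))⁻¹ * r (sgK a)) * _ = _
    rw [inv_mul_cancel]
    exact one_mul _
  choose sg hsgK hsg using hgen
  have hst : ∀ j : Fin 20, ∃ g ∈ K, toM g = φ.mapMatrix (stM j) := by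
    intro j
    induction j using WellFoundedLT.induction with
    | _ j ih =>
      rcases eq_or_ne j 0 with rfl | hj
      · exact ⟨1, one_mem _, by rw [stM_eq.1, map_one]; rfl⟩
      obtain ⟨g, hg, hgm⟩ := ih _ (stP_lt j hj)
      rw [stM_eq.2 j hj]
      exact ⟨g * sg _, mul_mem hg (hsgK _), tmul hgm (hsg _)⟩
  choose s hsK hs using hst
  let p : Fin 126 → (Fin 3 → F) := fun i => φ ∘ pPt i
  have hp0 : ∀ i, p i ≠ 0 := fun i => map_ne_zero' hφ (pPt_ne i)
  have happ : ∀ i j, ∃ c : F, toM (r i * s j) *ᵥ p 0 = c • p i := by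
    intro i j
    obtain ⟨c, hc⟩ := smul_of_prop3 φ (hp0 0) (stM_fix j)
    obtain ⟨d, hd⟩ := smul_of_prop3 φ (hp0 i) (rep_pt i)
    rw [map_mulVec'] at hc hd
    refine ⟨c * d, ?_⟩
    show (toM (r i) * toM (s j)) *ᵥ p 0 = _
    rw [hr, hs, ← Matrix.mulVec_mulVec, hc, Matrix.mulVec_smul, hd, smul_smul]
  have hcard : 2520 ≤ Nat.card (K.map π) := by
    let f : Fin 126 × Fin 20 → K.map π := fun x =>
      ⟨π (r x.1 * s x.2), _, mul_mem (hrK _) (hsK _), rfl⟩
    have hf : Function.Injective f := by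
      rintro ⟨i, j⟩ ⟨i', j'⟩ h
      have h1 : π (r i * s j) = π (r i' * s j') := congrArg Subtype.val h
      obtain ⟨e, he⟩ := mem_center_scalar hF (QuotientGroup.eq.1 h1)
      have h2 : toM (r i' * s j') = e • toM (r i * s j) := by
        have h3 : toM (r i' * s j') =
            toM (r i * s j) * toM ((r i * s j)⁻¹ * (r i' * s j')) := by
          show _ = toM (r i * s j * ((r i * s j)⁻¹ * (r i' * s j')))
          rw [mul_inv_cancel_left]
        rw [h3, show toM ((r i * s j)⁻¹ * (r i' * s j')) = e • 1 from he, Matrix.mul_smul,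
          Matrix.mul_one]
      obtain ⟨c, hc⟩ := happ i j
      obtain ⟨c', hc'⟩ := happ i' j'
      have h4 : c' • p i' = (e * c) • p i := by
        rw [← hc', h2, Matrix.smul_mulVec, hc, smul_smul]
      have hc'0 : c' ≠ 0 := fun h0 => mulVec_ne_zero (r i' * s j') (hp0 0) (by
        rw [show (r i' * s j').1.1 = toM (r i' * s j') from rfl, hc', h0, zero_smul])
      have hi : i' = i := pPt_distinct i' i (prop3_of_map hφ (c := c'⁻¹ * (e * c)) (by
        rw [show φ ∘ pPt i' = p i' from rfl, ← smul_smul, ← h4, inv_smul_smul₀ hc'0]))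
      subst hi
      have h5 : toM (s j') = e • toM (s j) := by
        have hu : IsUnit (toM (r i')) := by
          rw [Matrix.isUnit_iff_isUnit_det, show (toM (r i')).det = 1 from (r i').1.2]
          exact isUnit_one
        refine hu.mul_right_injective ?_
        show toM (r i') * toM (s j') = toM (r i') * (e • toM (s j))
        rw [Matrix.mul_smul]
        exact h2
      rw [hs, hs] at h5
      rw [stM_distinct j' j (propM_of_map hφ h5)]
    have := Nat.card_le_card_of_injective f hf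
    simpa using this
  have hG : Nat.card (Cfsg.PSU 3 F 5) = 126000 := by
    have h := Classical.U.card_PSU hsq (n := 3) (by norm_num)
    rw [Classical.U.card_UG hsq] at h
    simp only [Finset.prod_range_succ, Finset.prod_range_zero] at h
    norm_num [Nat.even_iff] at h ⊢
    omega
  refine ⟨K.map π, le_antisymm ?_ (index_lower hF _ hproper)⟩
  have h := Subgroup.card_mul_index (K.map π)
  rw [hG] at h
  nlinarith [Nat.zero_le (K.map π).index]

end Cfsg.Agent.MinIndexU35
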